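import Mathlib

/-!
# Parameters of a strongly regular graph on 100 vertices of valency 22

A strongly regular graph on 100 vertices of valency 22 has parameters (100, 22, 0, 6): the other candidates
allowed by the counting relation fail the integrality of the multiplicities of the eigenvalues.
-/

set_option autoImplicit false
set_option linter.unusedSectionVars false

namespace Cfsg.Agent.Lib.HSRank3.Params

open Matrix

variable {V : Type*} [Fintype V] [DecidableEq V] {Γ : SimpleGraph V} [DecidableRel Γ.Adj]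

/-- The trace of an idempotent rational matrix is a natural number. -/
theorem trace_idem (E : Matrix V V ℚ) (h : E * E = E) : ∃ n : ℕ, E.trace = n := by
  have h1 : IsIdempotentElem (Matrix.toLin' E) := by
    show Matrix.toLin' E * Matrix.toLin' E = Matrix.toLin' E
    rw [Module.End.mul_eq_comp, ← Matrix.toLin'_mul, h]
  have h2 := (LinearMap.IsIdempotentElem.isProj_range _ h1).trace
  rw [Matrix.trace_toLin'_eq] at h2
  exact ⟨_, h2⟩

/-- The all-ones matrix. -/
def JJ (V : Type*) : Matrix V V ℚ := Matrix.of fun _ _ => (1 : ℚ)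

theorem J_mul_J : JJ V * JJ V = (Fintype.card V : ℚ) • JJ V := by
  ext i j
  simp [Matrix.mul_apply, JJ]

theorem trace_J : (JJ V).trace = Fintype.card V := by
  simp [Matrix.trace, JJ]

theorem A_mul_J {k : ℕ} (h : Γ.IsRegularOfDegree k) : Γ.adjMatrix ℚ * JJ V = (k : ℚ) • JJ V := by
  ext i j
  rw [SimpleGraph.adjMatrix_mul_apply]
  simp only [JJ, Matrix.of_apply, Finset.sum_const, nsmul_eq_mul, mul_one, Matrix.smul_apply, smul_eq_mul]
  rw [SimpleGraph.card_neighborFinset_eq_degree, h i]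

theorem J_mul_A {k : ℕ} (h : Γ.IsRegularOfDegree k) : JJ V * Γ.adjMatrix ℚ = (k : ℚ) • JJ V := by
  ext i j
  rw [SimpleGraph.mul_adjMatrix_apply]
  simp only [JJ, Matrix.of_apply, Finset.sum_const, nsmul_eq_mul, mul_one, Matrix.smul_apply, smul_eq_mul]
  rw [SimpleGraph.card_neighborFinset_eq_degree, h j]

theorem compl_eq : Γᶜ.adjMatrix ℚ = JJ V - 1 - Γ.adjMatrix ℚ := by
  ext i j
  by_cases hij : i = j
  · subst hij
    simp [JJ, SimpleGraph.adjMatrix_apply]
  · by_cases ha : Γ.Adj i j <;> simp [JJ, SimpleGraph.adjMatrix_apply, Matrix.one_apply, hij, ha]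

theorem A_sq {k l m : ℕ} {n : ℕ} (h : Γ.IsSRGWith n k l m) :
    Γ.adjMatrix ℚ * Γ.adjMatrix ℚ = (k : ℚ) • (1 : Matrix V V ℚ) + (l : ℚ) • Γ.adjMatrix ℚ +
      (m : ℚ) • (JJ V - 1 - Γ.adjMatrix ℚ) := by
  have h1 := h.matrix_eq (α := ℚ)
  rw [pow_two, compl_eq] at h1
  rw [h1]
  simp only [Nat.cast_smul_eq_nsmul]

/-- `(21, 0)` is impossible. -/
theorem not_21_0 (h : Γ.IsSRGWith 100 22 21 0) : False := by
  have hA := A_sq h
  let E : Matrix V V ℚ := (1 / 23 : ℚ) • (Γ.adjMatrix ℚ + 1)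
  have hE : E * E = E := by
    simp only [E, Matrix.smul_mul, Matrix.mul_smul, Matrix.mul_add, Matrix.add_mul, hA, Matrix.mul_one,
      Matrix.one_mul]
    push_cast
    module
  obtain ⟨n, hn⟩ := trace_idem E hE
  have ht : E.trace = 100 / 23 := by
    simp only [E, Matrix.trace_smul, Matrix.trace_add, SimpleGraph.trace_adjMatrix, Matrix.trace_one, h.card]
    norm_num
  rw [ht] at hn
  have : (100 : ℚ) = 23 * n := by
    field_simp at hn
    linarith
  have h2 : (100 : ℕ) = 23 * n := by exact_mod_cast this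
  omega

/-- `(7, 4)` is impossible. -/
theorem not_7_4 (h : Γ.IsSRGWith 100 22 7 4) : False := by
  have hA := A_sq h
  have hAJ := A_mul_J h.regular
  have hJA := J_mul_A h.regular
  have hJJ : JJ V * JJ V = (100 : ℚ) • JJ V := by
    rw [J_mul_J, h.card]
    norm_num
  let E : Matrix V V ℚ := (1 / 9 : ℚ) • (Γ.adjMatrix ℚ + (3 : ℚ) • (1 : Matrix V V ℚ) - (1 / 4 : ℚ) • JJ V)
  have hE : E * E = E := by
    simp only [E, Matrix.smul_mul, Matrix.mul_smul, Matrix.mul_add, Matrix.add_mul, Matrix.mul_sub, Matrix.sub_mul,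
      hA, hAJ, hJA, hJJ, Matrix.mul_one, Matrix.one_mul]
    push_cast
    module
  obtain ⟨n, hn⟩ := trace_idem E hE
  have ht : E.trace = 275 / 9 := by
    simp only [E, Matrix.trace_smul, Matrix.trace_add, Matrix.trace_sub, SimpleGraph.trace_adjMatrix,
      Matrix.trace_one, h.card, trace_J, smul_eq_mul]
    norm_num
  rw [ht] at hn
  have : (275 : ℚ) = 9 * n := by
    field_simp at hn
    linarith
  have h2 : (275 : ℕ) = 9 * n := by exact_mod_cast this
  omega

/-- `(14, 2)` is impossible. -/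
theorem not_14_2 (h : Γ.IsSRGWith 100 22 14 2) : False := by
  have hA := A_sq h
  let M : Matrix V V ℚ := Γ.adjMatrix ℚ - (6 : ℚ) • (1 : Matrix V V ℚ)
  have hM : M * M = (56 : ℚ) • (1 : Matrix V V ℚ) + (2 : ℚ) • JJ V := by
    simp only [M, Matrix.smul_mul, Matrix.mul_smul, Matrix.mul_sub, Matrix.sub_mul, hA, Matrix.mul_one,
      Matrix.one_mul]
    push_cast
    module
  have h1 : (56 : ℚ) • (1 : Matrix V V ℚ) + (2 : ℚ) • JJ V =
      (56 : ℚ) • (1 + Matrix.replicateCol Unit (fun _ => (1 / 28 : ℚ)) * Matrix.replicateRow Unit (fun _ : V => (1 : ℚ))) := by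
    ext i j
    by_cases hij : i = j <;> simp [JJ, Matrix.mul_apply, Matrix.replicateCol, Matrix.replicateRow, Matrix.one_apply, hij] <;> norm_num
  have h2 := congrArg Matrix.det hM
  rw [h1, Matrix.det_mul, Matrix.det_smul, Matrix.det_one_add_replicateCol_mul_replicateRow, h.card] at h2
  have h3 : ((fun _ : V => (1 : ℚ)) ⬝ᵥ fun _ => (1 / 28 : ℚ)) = 100 / 28 := by
    simp [dotProduct, h.card]
    ring
  rw [h3] at h2
  have h4 : IsSquare ((224 : ℕ) : ℚ) := by
    refine ⟨7 * M.det / 56 ^ 50, ?_⟩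
    have h5 : (56 : ℚ) ^ 50 ≠ 0 := by positivity
    field_simp
    have h6 : M.det ^ 2 = 56 ^ 100 * (1 + 100 / 28) := by rw [pow_two, h2]
    push_cast
    rw [h6]
    norm_num
  rw [Rat.isSquare_natCast_iff] at h4
  obtain ⟨r, hr⟩ := h4
  have hr1 : r ≤ 14 ∨ 15 ≤ r := by omega
  rcases hr1 with hr1 | hr1
  · have := Nat.mul_le_mul hr1 hr1
    omega
  · have := Nat.mul_le_mul hr1 hr1
    omega

/-- A strongly regular graph on 100 vertices of valency 22 has `λ = 0`, `μ = 6`. -/
theorem params {l m : ℕ} (h : Γ.IsSRGWith 100 22 l m) : l = 0 ∧ m = 6 := by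
  have h1 := h.param_eq Γ (by norm_num)
  have hne : Nonempty V := by
    apply Fintype.card_pos_iff.mp
    rw [h.card]
    norm_num
  obtain ⟨v⟩ := hne
  have hv : 0 < Γ.degree v := by
    rw [h.regular v]
    norm_num
  obtain ⟨w, hw⟩ := (Γ.degree_pos_iff_exists_adj v).mp hv
  have h2 : l < 22 := by
    have h3 := hw.card_commonNeighbors_lt_degree
    rw [h.of_adj v w hw, h.regular v] at h3
    exact h3
  have h3 : (l = 21 ∧ m = 0) ∨ (l = 14 ∧ m = 2) ∨ (l = 7 ∧ m = 4) ∨ (l = 0 ∧ m = 6) := by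
    have hm : m ≤ 6 := by omega
    interval_cases m <;> omega
  rcases h3 with ⟨rfl, rfl⟩ | ⟨rfl, rfl⟩ | ⟨rfl, rfl⟩ | ⟨rfl, rfl⟩
  · exact (not_21_0 h).elim
  · exact (not_14_2 h).elim
  · exact (not_7_4 h).elim
  · exact ⟨rfl, rfl⟩

end Cfsg.Agent.Lib.HSRank3.Params
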