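import Mathlib
import Cfsg.Agent.Lib.HSRank3.Params

/-!
# The orbital graph of a rank 3 action of degree 100 with subdegrees 1, 22, 77

The orbital of valency 22 is self-paired and gives a strongly regular graph, with parameters (100, 22, 0, 6).
-/

set_option autoImplicit false

namespace Cfsg.Agent.Lib.HSRank3.Graph

open MulAction Finset

variable {H : Type*} [Group H] {Ω : Type*} [Fintype Ω] [MulAction H Ω]

theorem card_filter_smul [DecidableEq Ω] (P Q : Ω → Prop) [DecidablePred P] [DecidablePred Q] (g : H)
    (h : ∀ z, P (g • z) ↔ Q z) : (univ.filter P).card = (univ.filter Q).card := by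
  symm
  refine Finset.card_bij (fun z _ => g • z) ?_ ?_ ?_
  · intro z hz
    simp only [mem_filter, mem_univ, true_and] at hz ⊢
    exact (h z).2 hz
  · intro z _ z' _ hzz
    exact MulAction.injective g hzz
  · intro z hz
    simp only [mem_filter, mem_univ, true_and] at hz
    refine ⟨g⁻¹ • z, ?_, smul_inv_smul g z⟩
    simp only [mem_filter, mem_univ, true_and]
    rw [← h, smul_inv_smul]
    exact hz

theorem exists_srg [DecidableEq Ω] [IsPretransitive H Ω] (hΩ : Fintype.card Ω = 100) (a b c : Ω)
    (hb : (orbit (stabilizer H a) b).ncard = 22) (hc : (orbit (stabilizer H a) c).ncard = 77) :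
    ∃ (Γ : SimpleGraph Ω) (_ : DecidableRel Γ.Adj), Γ.IsSRGWith 100 22 0 6 ∧
      ∀ (g : H) (x y : Ω), Γ.Adj (g • x) (g • y) ↔ Γ.Adj x y := by
  classical
  set S := stabilizer H a with hS
  set Δ := orbit S b with hΔ
  set Θ := orbit S c with hΘ
  have hsa : ∀ s : S, s • a = a := fun s => s.2
  -- the point is not in the other orbits
  have hno : ∀ z, (orbit S z).ncard ≠ 1 → a ∉ orbit S z := by
    rintro z hz ⟨s, hs⟩
    have hza : z = a := by
      have h1 : s⁻¹ • (s • z) = s⁻¹ • a := by
        congr 1
      rw [inv_smul_smul] at h1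
      rw [h1]
      exact hsa s⁻¹
    apply hz
    have h2 : orbit S z = {a} := by
      ext y
      rw [hza]
      constructor
      · rintro ⟨t, rfl⟩
        exact hsa t
      · intro hy
        rw [Set.mem_singleton_iff.1 hy]
        exact mem_orbit_self a
    rw [h2, Set.ncard_singleton]
  have haΔ : a ∉ Δ := hno b (by rw [hb]; norm_num)
  have haΘ : a ∉ Θ := hno c (by rw [hc]; norm_num)
  have hdisj : Disjoint Δ Θ := by
    rw [Set.disjoint_left]
    intro x hx hx'
    have h1 : orbit S x = Δ := orbit_eq_iff.2 hx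
    have h2 : orbit S x = Θ := orbit_eq_iff.2 hx'
    have h3 : (orbit S b).ncard = (orbit S c).ncard := by
      change Δ.ncard = Θ.ncard
      rw [← h1, ← h2]
    rw [hb, hc] at h3
    omega
  have hcover : ∀ z, z = a ∨ z ∈ Δ ∨ z ∈ Θ := by
    have h1 : (Δ ∪ Θ).ncard = 99 := by
      rw [Set.ncard_union_eq hdisj (Set.toFinite _) (Set.toFinite _), hb, hc]
    have h2 : (insert a (Δ ∪ Θ)).ncard = 100 := by
      rw [Set.ncard_insert_of_notMem (by simp [haΔ, haΘ]) (Set.toFinite _), h1]
    have h3 : insert a (Δ ∪ Θ) = Set.univ := by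
      refine Set.eq_of_subset_of_ncard_le (Set.subset_univ _) ?_ (Set.toFinite _)
      rw [h2, Set.ncard_univ, Nat.card_eq_fintype_card, hΩ]
    intro z
    have h4 : z ∈ insert a (Δ ∪ Θ) := by rw [h3]; trivial
    simpa using h4
  have hΔinv : ∀ s : H, s ∈ S → ∀ z ∈ Δ, s • z ∈ Δ := by
    rintro s hs _ ⟨t, rfl⟩
    exact ⟨⟨s, hs⟩ * t, mul_smul (⟨s, hs⟩ : S) t b⟩
  -- the relation
  let R : Ω → Ω → Prop := fun x y => ∃ g : H, g • a = x ∧ g⁻¹ • y ∈ Δ
  have R_smul : ∀ (h : H) (x y : Ω), R x y → R (h • x) (h • y) := by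
    rintro h x y ⟨g, hg, hy⟩
    refine ⟨h * g, by rw [mul_smul, hg], ?_⟩
    rw [mul_inv_rev, mul_smul, inv_smul_smul]
    exact hy
  have R_iff : ∀ (h : H) (x y : Ω), R (h • x) (h • y) ↔ R x y := by
    intro h x y
    refine ⟨fun hR => ?_, R_smul h x y⟩
    have := R_smul h⁻¹ _ _ hR
    rwa [inv_smul_smul, inv_smul_smul] at this
  have R_a : ∀ y, R a y ↔ y ∈ Δ := by
    intro y
    constructor
    · rintro ⟨g, hg, hy⟩
      have hgS : g ∈ S := hg
      have := hΔinv g hgS _ hy
      rwa [smul_inv_smul] at this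
    · intro hy
      exact ⟨1, one_smul _ _, by simpa using hy⟩
  -- counting the paired orbital
  have hA : ∀ x, (univ.filter (fun y => R x y)).card = 22 := by
    intro x
    obtain ⟨g, rfl⟩ := exists_smul_eq H a x
    rw [card_filter_smul (fun y => R (g • a) y) (fun y => R a y) g (fun z => R_iff g a z), ← hb,
      Set.ncard_eq_toFinset_card']
    congr 1
    ext y
    simp [R_a]
  have hB0 : ∀ y, (univ.filter (fun x => R x y)).card = (univ.filter (fun x => R x a)).card := by
    intro y
    obtain ⟨g, rfl⟩ := exists_smul_eq H a y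
    exact card_filter_smul (fun x => R x (g • a)) (fun x => R x a) g (fun z => R_iff g z a)
  have hB : (univ.filter (fun x => R x a)).card = 22 := by
    have h1 := Finset.sum_card_bipartiteAbove_eq_sum_card_bipartiteBelow (s := (univ : Finset Ω)) (t := (univ : Finset Ω)) R
    simp only [Finset.bipartiteAbove, Finset.bipartiteBelow, hA, hB0, Finset.sum_const, Finset.card_univ, hΩ] at h1
    simp only [smul_eq_mul] at h1
    omega
  have hsub : ∀ x, R x a → x ∈ Δ := by
    intro x hx
    rcases hcover x with rfl | h | h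
    · exact (R_a _).1 hx
    · exact h
    · exfalso
      have h1 : orbit S x = Θ := orbit_eq_iff.2 h
      have h2 : Θ.toFinset ⊆ univ.filter (fun x => R x a) := by
        intro z hz
        simp only [Set.mem_toFinset] at hz
        rw [← h1] at hz
        obtain ⟨s, rfl⟩ := hz
        simp only [mem_filter, mem_univ, true_and]
        have := R_smul s.1 x a hx
        rwa [show s.1 • a = a from hsa s] at this
      have h3 := Finset.card_le_card h2
      rw [hB, ← Set.ncard_eq_toFinset_card', hc] at h3
      omega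
  have hsup : ∀ x, x ∈ Δ → R x a := by
    have h1 : univ.filter (fun x => R x a) ⊆ Δ.toFinset := by
      intro x hx
      simp only [mem_filter, mem_univ, true_and] at hx
      simpa using hsub x hx
    have h2 : univ.filter (fun x => R x a) = Δ.toFinset := by
      refine Finset.eq_of_subset_of_card_le h1 ?_
      rw [hB, ← Set.ncard_eq_toFinset_card', hb]
    intro x hx
    have h3 : x ∈ univ.filter (fun x => R x a) := by
      rw [h2]
      simpa using hx
    simpa using h3
  have R_symm : ∀ x y, R x y → R y x := by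
    rintro x y ⟨g, rfl, hy⟩
    have := R_smul g _ _ (hsup _ hy)
    rwa [smul_inv_smul] at this
  have R_irrefl : ∀ x, ¬ R x x := by
    rintro x ⟨g, rfl, hy⟩
    rw [inv_smul_smul] at hy
    exact haΔ hy
  let Γ : SimpleGraph Ω := { Adj := R, symm := ⟨R_symm⟩, loopless := ⟨R_irrefl⟩ }
  letI inst : DecidableRel Γ.Adj := Classical.decRel _
  have hinv : ∀ (g : H) (x y : Ω), Γ.Adj (g • x) (g • y) ↔ Γ.Adj x y := R_iff
  refine ⟨Γ, inst, ?_, hinv⟩
  have hcommon : ∀ (g : H) (x y : Ω), Fintype.card (Γ.commonNeighbors (g • x) (g • y)) =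
      Fintype.card (Γ.commonNeighbors x y) := by
    intro g x y
    symm
    refine Fintype.card_congr (Equiv.subtypeEquiv (MulAction.toPerm g) ?_)
    intro z
    simp only [SimpleGraph.mem_commonNeighbors, MulAction.toPerm_apply]
    rw [hinv, hinv]
  have hreg : Γ.IsRegularOfDegree 22 := by
    intro v
    rw [← SimpleGraph.card_neighborFinset_eq_degree, SimpleGraph.neighborFinset_eq_filter, ← hA v]
  have hbΔ : b ∈ Δ := mem_orbit_self b
  have hcΘ : c ∈ Θ := mem_orbit_self c
  have hsrg : Γ.IsSRGWith 100 22 (Fintype.card (Γ.commonNeighbors a b))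
      (Fintype.card (Γ.commonNeighbors a c)) := by
    refine ⟨hΩ, hreg, ?_, ?_⟩
    · rintro v w ⟨g, rfl, hy⟩
      obtain ⟨s, hs⟩ := hy
      have h1 : w = (g * s.1) • b := by
        rw [mul_smul]
        have hs' : s • b = g⁻¹ • w := hs
        change w = g • (s • b)
        rw [hs', smul_inv_smul]
      have h2 : g • a = (g * s.1) • a := by
        rw [mul_smul, show s.1 • a = a from hsa s]
      rw [h1, h2, hcommon]
    · intro v w hvw hn
      obtain ⟨g, rfl⟩ := exists_smul_eq H a v
      set z := g⁻¹ • w with hz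
      have hw : w = g • z := by rw [hz, smul_inv_smul]
      have hza : z ≠ a := by
        intro h
        apply hvw
        rw [hw, h]
      have hzΔ : z ∉ Δ := by
        intro h
        apply hn
        exact ⟨g, rfl, h⟩
      have hzΘ : z ∈ Θ := by
        rcases hcover z with h | h | h
        · exact (hza h).elim
        · exact (hzΔ h).elim
        · exact h
      obtain ⟨s, hs⟩ := hzΘ
      have h1 : w = (g * s.1) • c := by
        rw [mul_smul, hw]
        congr 1
        exact hs.symm
      have h2 : g • a = (g * s.1) • a := by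
        rw [mul_smul, show s.1 • a = a from hsa s]
      rw [h1, h2, hcommon]
  have hp := Cfsg.Agent.Lib.HSRank3.Params.params hsrg
  rw [hp.1, hp.2] at hsrg
  exact hsrg

end Cfsg.Agent.Lib.HSRank3.Graph
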